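import Cfsg.Prelude.Def_Blocks
import Cfsg.Agent.Eq.Def_Blocks
import Cfsg.Agent.Chars.Basic
import Cfsg.Agent.Chars.Basic.Kernel
import Cfsg.Agent.Chars.Basic.Galois
import Cfsg.Agent.Chars.GaloisHom.Basic
import Cfsg.Agent.Chars.Apps.MonomialGroups
import Cfsg.Agent.Chars.Induced.Rep
import Cfsg.Agent.PGroup.Frattini
import Mathlib.NumberTheory.Cyclotomic.Gal
import Mathlib.FieldTheory.IntermediateField.Algebraic
import Mathlib.FieldTheory.PrimitiveElement

/-!
# The order of a `p`-group with a faithful irreducible character of given degree and field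

The character is induced from a subgroup of index `p`; either the field of values stays and the
kernels of the `p` conjugates meet trivially, or it grows by `p` and they all coincide.
-/

set_option autoImplicit false
set_option linter.style.haveILetI false

namespace CfsgLib.PGroupFieldBound

open Cfsg CfsgLib.Chars CfsgLib.Chars.Induced
open scoped ComplexConjugate

universe u

/-- The field of values. -/
noncomputable abbrev valField {G : Type u} (f : G → ℂ) : IntermediateField ℚ ℂ :=
  IntermediateField.adjoin ℚ (Set.range f)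

theorem index_biInf_le {G : Type u} [Group G] {ι : Type*} (s : Finset ι) (f : ι → Subgroup G) :
    (⨅ i ∈ s, f i).index ≤ ∏ i ∈ s, (f i).index := by
  classical
  induction s using Finset.induction_on with
  | empty => simp
  | @insert a s ha ih =>
    rw [Finset.iInf_insert, Finset.prod_insert ha]
    exact Subgroup.index_inf_le.trans (Nat.mul_le_mul_left _ ih)

theorem ringHom_eq_of_eq_values {G : Type u} {f : G → ℂ} (σ τ : ℂ →+* ℂ) (h : ∀ g, σ (f g) = τ (f g)) :
    ∀ x ∈ valField f, σ x = τ x := by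
  intro x hx
  induction hx using IntermediateField.adjoin_induction with
  | mem x hx => obtain ⟨g, rfl⟩ := hx; exact h g
  | algebraMap x => simp
  | add x y _ _ hx hy => rw [map_add, map_add, hx, hy]
  | inv x _ hx => rw [map_inv₀, map_inv₀, hx]
  | mul x y _ _ hx hy => rw [map_mul, map_mul, hx, hy]

theorem mem_cyclotomic {G : Type u} [Group G] [Finite G] {N : ℕ} (hN : 0 < N) {ζ : ℂ}
    (hζ : IsPrimitiveRoot ζ N) (hexp : ∀ g : G, g ^ N = 1) {f : G → ℂ} (hf : IsCharacter G f) :
    valField f ≤ IntermediateField.adjoin ℚ ({ζ} : Set ℂ) := by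
  haveI : NeZero N := ⟨hN.ne'⟩
  rw [IntermediateField.adjoin_le_iff]
  rintro _ ⟨g, rfl⟩
  obtain ⟨s, h1, -, h3⟩ := exists_roots hf g
  have e := h3 1
  simp only [pow_one, Multiset.map_id'] at e
  rw [e]
  refine multiset_sum_mem _ fun z hz => ?_
  obtain ⟨c, hc⟩ := orderOf_dvd_of_pow_eq_one (hexp g)
  have hzN : z ^ N = 1 := by rw [hc, pow_mul, h1 z hz, one_pow]
  obtain ⟨i, -, rfl⟩ := hζ.eq_pow_of_pow_eq_one hzN
  exact pow_mem (IntermediateField.subset_adjoin ℚ _ (Set.mem_singleton ζ)) i

theorem finrank_cyclotomic {N : ℕ} (hN : 0 < N) {ζ : ℂ} (hζ : IsPrimitiveRoot ζ N) :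
    Module.finrank ℚ (IntermediateField.adjoin ℚ ({ζ} : Set ℂ)) = N.totient := by
  rw [IntermediateField.adjoin.finrank ((hζ.isIntegral hN).tower_top),
    ← Polynomial.cyclotomic_eq_minpoly_rat hζ hN, Polynomial.natDegree_cyclotomic]

theorem finiteDimensional_valField {G : Type u} [Group G] [Finite G] {f : G → ℂ}
    (hf : IsCharacter G f) : FiniteDimensional ℚ (valField f) := by
  haveI : Finite (Set.range f) := Set.finite_range f
  refine IntermediateField.finiteDimensional_adjoin fun x hx => ?_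
  obtain ⟨g, rfl⟩ := hx
  exact (isIntegral_apply hf g).tower_top

/-- An embedding of the field of values is the restriction of an automorphism of `ℂ`. -/
theorem exists_extend {G : Type u} [Group G] [Finite G] {f : G → ℂ} (hf : IsCharacter G f)
    (τ : valField f →ₐ[ℚ] ℂ) : ∃ σ : ℂ ≃+* ℂ, ∀ x : valField f, σ x = τ x := by
  haveI := finiteDimensional_valField hf
  have hcard : Cardinal.mk (valField f) ≤ Cardinal.aleph0 :=
    (Algebra.IsAlgebraic.cardinalMk_le_max ℚ (valField f)).trans (by simp)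
  exact CfsgLib.GaloisHom.exists_ringEquiv_extend hcard τ.toRingHom

section step

variable {P : Type u} [Group P] [Fintype P] {M : Subgroup P} [M.Normal]

/-- The conjugates of a function on a normal subgroup. -/
noncomputable def conjSet (θ : M → ℂ) : Finset (M → ℂ) :=
  open scoped Classical in Finset.univ.image fun x : P => conjFun M x θ

theorem card_conjSet_le {θ : M → ℂ} (hθ : IsClassFunction M θ) : (conjSet θ).card ≤ M.index := by
  classical
  haveI := Fintype.ofFinite (P ⧸ M)
  have hsub : conjSet θ ⊆ Finset.univ.image fun q : P ⧸ M => conjFun M q.out θ := by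
    intro η hη
    obtain ⟨x, -, rfl⟩ := Finset.mem_image.1 hη
    refine Finset.mem_image.2 ⟨(x : P ⧸ M), Finset.mem_univ _, ?_⟩
    obtain ⟨m, hm⟩ := QuotientGroup.mk_out_eq_mul M x
    rw [hm, conjFun_mul, conjFun_of_mem hθ m.2]
  refine (Finset.card_le_card hsub).trans (Finset.card_image_le.trans ?_)
  rw [Finset.card_univ, Subgroup.index_eq_card, Nat.card_eq_fintype_card]

theorem isIrrCharacter_conjFun [Fintype M] {θ : M → ℂ} (hθ : IsIrrCharacter M θ) (x : P) :
    IsIrrCharacter M (conjFun M x θ) :=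
  isIrrCharacter_comp hθ ((MulAut.conjNormal x : MulAut M)⁻¹).toMonoidHom
    ((MulAut.conjNormal x : MulAut M)⁻¹).surjective

theorem mem_charKer_conjFun {θ : M → ℂ} (x : P) (g : M) :
    g ∈ charKer (conjFun M x θ) ↔ ((MulAut.conjNormal x : MulAut M)⁻¹) g ∈ charKer θ := by
  rw [mem_charKer, mem_charKer]
  constructor
  · intro h k
    have := h ((MulAut.conjNormal x : MulAut M) k)
    simpa [conjFun] using this
  · intro h k
    have := h ((MulAut.conjNormal x : MulAut M)⁻¹ k)
    simpa [conjFun] using this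

theorem index_charKer_conjFun {θ : M → ℂ} (x : P) :
    (charKer (conjFun M x θ)).index = (charKer θ).index := by
  have h : charKer (conjFun M x θ) =
      (charKer θ).comap ((MulAut.conjNormal x : MulAut M)⁻¹).toMonoidHom := by
    ext g
    exact mem_charKer_conjFun x g
  rw [h, Subgroup.index_comap_of_surjective _ ((MulAut.conjNormal x : MulAut M)⁻¹).surjective]

end step

theorem bound_linear {p : ℕ} (hp : p.Prime) {P : Type u} [Group P] [Finite P] {l : P →* ℂˣ} {a t : ℕ}
    (ha : (charKer fun g => (l g : ℂ)).index = p ^ a)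
    (ht : Module.finrank ℚ (valField fun g => (l g : ℂ)) = (p - 1) * p ^ t) : a ≤ t + 1 := by
  rcases Nat.eq_zero_or_pos a with rfl | ha0
  · omega
  have hk : (charKer fun g => (l g : ℂ)) = l.ker := by
    ext g
    rw [mem_charKer, MonoidHom.mem_ker]
    refine ⟨fun h => ?_, fun h k => by simp [h]⟩
    have := h 1
    simpa using this
  rw [hk, Subgroup.index_ker] at ha
  haveI : Finite l.range := Finite.of_surjective l.rangeRestrict l.rangeRestrict_surjective
  obtain ⟨⟨u, hu⟩, hgen⟩ := IsCyclic.exists_generator (α := l.range)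
  have hord : orderOf u = p ^ a := by
    rw [← ha, ← orderOf_eq_card_of_forall_mem_zpowers hgen, Subgroup.orderOf_mk]
  obtain ⟨g, hg⟩ := hu
  have hprim : IsPrimitiveRoot (l g : ℂ) (p ^ a) := by
    rw [← hord, ← hg, ← orderOf_units]
    exact IsPrimitiveRoot.orderOf _
  have heq : valField (fun g => (l g : ℂ)) = IntermediateField.adjoin ℚ ({(l g : ℂ)} : Set ℂ) := by
    refine le_antisymm ?_ (IntermediateField.adjoin_simple_le_iff.2
      (IntermediateField.subset_adjoin ℚ _ ⟨g, rfl⟩))
    rw [IntermediateField.adjoin_le_iff]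
    rintro _ ⟨h, rfl⟩
    obtain ⟨k, hk'⟩ := Subgroup.mem_zpowers_iff.1 (hgen ⟨l h, h, rfl⟩)
    have e : (l h : ℂ) = (l g : ℂ) ^ k := by
      rw [← Units.val_zpow_eq_zpow_val, hg]
      exact congrArg (fun w : l.range => ((w : ℂˣ) : ℂ)) hk'.symm
    show (l h : ℂ) ∈ _
    rw [e]
    exact zpow_mem (IntermediateField.mem_adjoin_simple_self ℚ _) k
  rw [heq, finrank_cyclotomic (pow_pos hp.pos a) hprim, Nat.totient_prime_pow hp ha0,
    mul_comm (p - 1)] at ht
  have h2 := Nat.pow_right_injective hp.two_le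
    (Nat.eq_of_mul_eq_mul_right (by have := hp.two_le; omega) ht)
  omega

open scoped Classical in
theorem bound (p : ℕ) (hp : p.Prime) :
    ∀ (n : ℕ) (P : Type u) [Group P] [Fintype P], Nat.card P = n → IsPGroup p P →
      ∀ (χ : IrrCharacter P) (f a t : ℕ), (χ : P → ℂ) 1 = f →
        (charKer (χ : P → ℂ)).index = p ^ a →
        Module.finrank ℚ (valField (χ : P → ℂ)) = (p - 1) * p ^ t →
        (p - 1) * a ≤ (f - 1) + (p - 1) * (t + 1) * f := by
  haveI := Fact.mk hp
  intro n
  induction n using Nat.strong_induction_on with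
  | _ n ih =>
  intro P _ _ hn hP χ f a t hf ha ht
  subst hn
  haveI := hP.isNilpotent
  obtain ⟨H, lam, hlam⟩ := Apps.isMonomialFun_of_isNilpotent _ P inferInstance rfl χ
  have hH1 : (H.index : ℂ) = f := by
    rw [← hf, hlam, indFun_one_apply]
    simp
  by_cases hH : H = ⊤
  · subst hH
    have hf1 : f = 1 := by
      have : (f : ℂ) = 1 := by rw [← hH1, Subgroup.index_top, Nat.cast_one]
      exact_mod_cast this
    obtain ⟨l, hl⟩ := exists_monoidHom_of_map_one_eq_one (isCharacter_coe χ) (by rw [hf, hf1]; simp)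
    have hχ : (χ : P → ℂ) = fun g => (l g : ℂ) := funext hl
    rw [hχ] at ha ht
    have hb := bound_linear hp ha ht
    calc (p - 1) * a ≤ (p - 1) * (t + 1) := Nat.mul_le_mul_left _ hb
      _ ≤ _ := by rw [hf1]; simp
  obtain ⟨M, hM, hHM⟩ := (eq_top_or_exists_le_coatom H).resolve_left hH
  haveI := CfsgLib.PGroup.normal_of_coatom hP hM
  have hidx : M.index = p := CfsgLib.PGroup.index_of_coatom hP hM
  set θ : M → ℂ := indFun (H.subgroupOf M) (fun h => (lam ⟨(h : M), h.2⟩ : ℂ)) with hθdef
  have hχθ : (χ : P → ℂ) = indFun M θ := by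
    rw [hlam, hθdef]
    exact (indFun_trans hHM fun h => (lam h : ℂ)).symm
  have hθchar : IsCharacter M θ := isCharacter_indFun_hom (H.subgroupOf M)
    ((Units.coeHom ℂ).comp (lam.comp ((Subgroup.subgroupOfEquivOfLe hHM).toMonoidHom)))
  have hθc : IsClassFunction M θ := CfsgLib.Chars.isClassFunction_of_isCharacter hθchar
  -- irreducibility
  have hnorm := classInner_self χ
  rw [hχθ, classInner_indFun_indFun_normal] at hnorm
  choose c hc using fun x : P => exists_nat_classInner'
    (isCharacter_comp hθchar ((MulAut.conjNormal x : MulAut M)⁻¹).toMonoidHom) hθchar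
  have hc' : ∀ x, classInner (conjFun M x θ) θ = c x := hc
  simp only [hc'] at hnorm
  have hsum : ∑ x : P, c x = Nat.card M := by
    have h0 : (Nat.card M : ℂ) ≠ 0 := card_subgroup_ne_zero M
    rw [inv_mul_eq_one₀ h0] at hnorm
    exact_mod_cast hnorm.symm
  have hcM : ∀ x ∈ M, c x = c 1 := fun x hx => by
    have : (c x : ℂ) = c 1 := by rw [← hc', ← hc', conjFun_of_mem hθc hx, conjFun_one]
    exact_mod_cast this
  have hθirr : IsIrrCharacter M θ := by
    refine isIrrCharacter_of_classInner_self hθchar ?_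
    have h1 := hc' 1
    rw [conjFun_one] at h1
    rw [h1]
    have hle : Nat.card M * c 1 ≤ Nat.card M := by
      calc Nat.card M * c 1 = ∑ x ∈ Finset.univ.filter (fun x : P => x ∈ M), c x := by
            rw [Finset.sum_congr rfl (g := fun _ => c 1) (fun x hx => hcM x (Finset.mem_filter.1 hx).2),
              Finset.sum_const, smul_eq_mul, ← Fintype.card_subtype, Nat.card_eq_fintype_card]
        _ ≤ ∑ x : P, c x := Finset.sum_le_sum_of_subset (Finset.filter_subset _ _)
        _ = Nat.card M := hsum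
    have hpos : c 1 ≠ 0 := by
      intro h0
      rw [h0, Nat.cast_zero] at h1
      have hθ0 : θ = 0 := by
        obtain ⟨d, hd, hd'⟩ := exists_nat_coeff hθchar
        have h := classInner_eq_sum hθc θ
        simp only [h1, hd', map_natCast] at h
        have h2 : ∑ ψ, d ψ * d ψ = 0 := by exact_mod_cast h.symm
        rw [hd]
        refine Finset.sum_eq_zero fun ψ hψ => ?_
        rw [mul_self_eq_zero.1 (Finset.sum_eq_zero_iff.1 h2 ψ hψ)]
        simp
      have hχ0 : (χ : P → ℂ) 1 = 0 := by rw [hχθ, hθ0, indFun_zero]; rfl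
      exact map_one_ne_zero χ hχ0
    have : c 1 ≤ 1 := Nat.le_of_mul_le_mul_left (hle.trans_eq (mul_one _).symm) Nat.card_pos
    have : c 1 = 1 := by omega
    rw [this, Nat.cast_one]
  set θ' : IrrCharacter M := ⟨θ, hθirr⟩
  obtain ⟨f', hf'⟩ : ∃ f' : ℕ, θ 1 = f' := exists_natCast_map_one hθchar
  have hf'pos : 0 < f' := by
    rw [← charDegree_eq_of_map_one hf']
    exact charDegree_pos θ'
  have hff : f = p * f' := by
    have h := hf
    rw [hχθ, indFun_one_apply, hidx, hf'] at h
    exact_mod_cast h.symm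
  -- the fields of values
  have hχM : ∀ m : M, (χ : P → ℂ) (m : P) = (Nat.card M : ℂ)⁻¹ * ∑ x : P, conjFun M x θ m :=
    fun m => by rw [hχθ, indFun_normal_mem]
  have hKL : valField (χ : P → ℂ) ≤ valField θ := by
    rw [IntermediateField.adjoin_le_iff]
    rintro _ ⟨g, rfl⟩
    by_cases hg : g ∈ M
    · rw [SetLike.mem_coe, hχM ⟨g, hg⟩]
      refine mul_mem (inv_mem (natCast_mem _ _)) (sum_mem fun x _ => ?_)
      exact IntermediateField.subset_adjoin ℚ _ ⟨_, rfl⟩
    · rw [SetLike.mem_coe, hχθ, indFun_normal_notMem θ hg]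
      exact zero_mem _
  haveI := finiteDimensional_valField (isCharacter_coe χ)
  haveI := finiteDimensional_valField hθchar
  -- degree of the larger field
  obtain ⟨N, hN⟩ := IsPGroup.iff_card.1 hP
  have hN1 : 1 ≤ N := by
    by_contra h0
    have h1 : p ∣ Nat.card P := hidx ▸ M.index_dvd_card
    rw [hN, show N = 0 by omega, pow_zero, Nat.dvd_one] at h1
    exact hp.one_lt.ne' h1
  set ζ : ℂ := Complex.exp (2 * Real.pi * Complex.I / (p ^ N : ℕ))
  have hζ : IsPrimitiveRoot ζ (p ^ N) := Complex.isPrimitiveRoot_exp _ (pow_ne_zero N hp.ne_zero)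
  have hLC := mem_cyclotomic (pow_pos hp.pos N) hζ (fun m : M => Subtype.ext (by
    rw [Subgroup.coe_pow, ← hN, pow_card_eq_one']; rfl)) hθchar
  haveI : FiniteDimensional ℚ (IntermediateField.adjoin ℚ ({ζ} : Set ℂ)) :=
    IntermediateField.adjoin.finiteDimensional ((hζ.isIntegral (pow_pos hp.pos N)).tower_top)
  have hLdvd := IntermediateField.finrank_dvd_of_le_right hLC
  rw [finrank_cyclotomic (pow_pos hp.pos N) hζ, Nat.totient_prime_pow hp hN1] at hLdvd
  have hKdvd := IntermediateField.finrank_dvd_of_le_right hKL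
  rw [ht] at hKdvd
  obtain ⟨r, hr⟩ : ∃ r, Module.finrank ℚ (valField θ) = (p - 1) * p ^ t * p ^ r := by
    obtain ⟨k, hk⟩ := hKdvd
    rw [hk, mul_comm (p ^ (N - 1)), mul_assoc] at hLdvd
    have h1 : p ^ t * k ∣ p ^ (N - 1) :=
      Nat.dvd_of_mul_dvd_mul_left (Nat.sub_pos_of_lt hp.one_lt) hLdvd
    obtain ⟨r, -, hr⟩ := (Nat.dvd_prime_pow hp).1 ((dvd_mul_left k _).trans h1)
    exact ⟨r, by rw [hk, hr]⟩
  -- embeddings fixing the smaller field
  set incl := IntermediateField.inclusion hKL
  set fib : (valField (χ : P → ℂ) →ₐ[ℚ] ℂ) → Finset (valField θ →ₐ[ℚ] ℂ) :=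
    fun ρ => Finset.univ.filter fun τ => τ.comp incl = ρ with hfib
  set ρ₀ : valField (χ : P → ℂ) →ₐ[ℚ] ℂ := IntermediateField.val _ with hρ₀
  let act : (valField θ →ₐ[ℚ] ℂ) → (M → ℂ) := fun τ m =>
    τ ⟨θ m, IntermediateField.subset_adjoin ℚ _ ⟨m, rfl⟩⟩
  have hact_inj : Function.Injective act := by
    intro τ τ' h
    refine AlgHom.ext fun x => ?_
    obtain ⟨σ, hσ⟩ := exists_extend hθchar τ
    obtain ⟨σ', hσ'⟩ := exists_extend hθchar τ'
    rw [← hσ, ← hσ']
    refine ringHom_eq_of_eq_values σ.toRingHom σ'.toRingHom (fun m => ?_) x x.2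
    show σ (θ m) = σ' (θ m)
    have h1 := hσ ⟨θ m, IntermediateField.subset_adjoin ℚ _ ⟨m, rfl⟩⟩
    have h2 := hσ' ⟨θ m, IntermediateField.subset_adjoin ℚ _ ⟨m, rfl⟩⟩
    exact h1.trans ((congrFun h m).trans h2.symm)
  have hact_mem : ∀ τ ∈ fib ρ₀, act τ ∈ conjSet θ := by
    intro τ hτ
    simp only [hfib, Finset.mem_filter, Finset.mem_univ, true_and] at hτ
    obtain ⟨σ, hσ⟩ := exists_extend hθchar τ
    have hσact : ∀ m, act τ m = σ (θ m) := fun m =>
      (hσ ⟨θ m, IntermediateField.subset_adjoin ℚ _ ⟨m, rfl⟩⟩).symm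
    have hfix : ∀ g, σ ((χ : P → ℂ) g) = (χ : P → ℂ) g := by
      intro g
      have hm : (χ : P → ℂ) g ∈ valField (χ : P → ℂ) := IntermediateField.subset_adjoin ℚ _ ⟨g, rfl⟩
      exact (hσ (incl ⟨_, hm⟩)).trans (AlgHom.congr_fun hτ ⟨_, hm⟩)
    set η : IrrCharacter M := ⟨fun m => σ (θ m), isIrrCharacter_ringHom hθirr σ.toRingHom⟩
    by_contra hnot
    have hne : ∀ x : P, classInner (conjFun M x θ) (η : M → ℂ) = 0 := fun x =>
      classInner_of_ne (χ := ⟨conjFun M x θ, isIrrCharacter_conjFun hθirr x⟩) (ψ := η) (fun h => hnot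
        (Finset.mem_image.2 ⟨x, Finset.mem_univ x, (congrArg Subtype.val h).trans (funext hσact).symm⟩))
    have hE1 : classInner (fun m : M => (χ : P → ℂ) m) (η : M → ℂ) = 0 := by
      rw [show (fun m : M => (χ : P → ℂ) m) = (Nat.card M : ℂ)⁻¹ • ∑ x : P, conjFun M x θ from
        funext fun m => by rw [hχM]; simp [Finset.sum_apply],
        CfsgLib.Chars.classInner_smul_left, CfsgLib.Chars.classInner_sum_left,
        Finset.sum_eq_zero fun x _ => hne x, mul_zero]
    have hE2 : (fun m : M => (χ : P → ℂ) m) =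
        (Nat.card M : ℂ)⁻¹ • ∑ x : P, fun m => σ (conjFun M x θ m) := funext fun m => by
      rw [← hfix (m : P), hχM, map_mul, map_inv₀, map_natCast, map_sum]
      simp [Finset.sum_apply]
    rw [hE2, CfsgLib.Chars.classInner_smul_left, CfsgLib.Chars.classInner_sum_left, mul_eq_zero,
      inv_eq_zero] at hE1
    have h0 := hE1.resolve_left (card_subgroup_ne_zero M)
    choose e he using fun x : P => exists_nat_classInner'
      (isCharacter_of_isIrrCharacter (isIrrCharacter_ringHom (isIrrCharacter_conjFun hθirr x) σ.toRingHom))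
      (isCharacter_coe η)
    have he' : ∀ x, classInner (fun m => σ (conjFun M x θ m)) (η : M → ℂ) = e x := he
    simp only [he'] at h0
    have h1 : e 1 = 0 := Finset.sum_eq_zero_iff.1 (by exact_mod_cast h0) 1 (Finset.mem_univ 1)
    have h2 := he' 1
    rw [conjFun_one, h1, Nat.cast_zero] at h2
    exact one_ne_zero ((classInner_self η).symm.trans h2)
  have hfib_le : ∀ ρ, (fib ρ).card ≤ (fib ρ₀).card := by
    intro ρ
    rcases Finset.eq_empty_or_nonempty (fib ρ) with he | ⟨τ₁, hτ₁⟩
    · simp [he]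
    obtain ⟨σ₁, hσ₁⟩ := exists_extend hθchar τ₁
    let move : (valField θ →ₐ[ℚ] ℂ) → (valField θ →ₐ[ℚ] ℂ) := fun τ =>
      (σ₁.symm.toRingHom.comp τ.toRingHom).toRatAlgHom
    refine Finset.card_le_card_of_injOn move (fun τ hτ => ?_) ?_
    · simp only [hfib, Finset.coe_filter, Finset.mem_univ, true_and, Set.mem_ofPred_eq,
        Finset.mem_filter] at hτ hτ₁ ⊢
      refine AlgHom.ext fun x => ?_
      show σ₁.symm (τ (incl x)) = (x : ℂ)
      rw [show τ (incl x) = ρ x from AlgHom.congr_fun hτ x,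
        ← show τ₁ (incl x) = ρ x from AlgHom.congr_fun hτ₁ x, ← hσ₁, RingEquiv.symm_apply_apply]
      rfl
    · intro τ _ τ' _ h
      refine AlgHom.ext fun x => σ₁.symm.injective ?_
      exact AlgHom.congr_fun h x
  have hfib0 : (fib ρ₀).card ≤ (conjSet θ).card :=
    Finset.card_le_card_of_injOn act hact_mem (fun τ _ τ' _ h => hact_inj h)
  have hSp : (conjSet θ).card ≤ p := hidx ▸ card_conjSet_le hθc
  have htotal : Module.finrank ℚ (valField θ) ≤ (p - 1) * p ^ t * (fib ρ₀).card := by
    rw [← ht, ← AlgHom.card ℚ (valField θ) ℂ, ← AlgHom.card ℚ (valField (χ : P → ℂ)) ℂ]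
    rw [← Finset.card_univ, Finset.card_eq_sum_card_fiberwise (f := fun τ => τ.comp incl)
      (t := Finset.univ) (fun τ _ => Finset.mem_univ _)]
    refine (Finset.sum_le_card_nsmul _ _ _ (fun ρ _ => hfib_le ρ)).trans ?_
    exact le_of_eq rfl
  have hpos : 0 < (p - 1) * p ^ t := Nat.mul_pos (Nat.sub_pos_of_lt hp.one_lt) (pow_pos hp.pos t)
  rw [hr] at htotal
  have hpr : p ^ r ≤ (fib ρ₀).card := Nat.le_of_mul_le_mul_left htotal hpos
  -- induction
  have hMcard : Nat.card M < Nat.card P := by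
    rw [← M.index_mul_card, hidx]
    exact lt_mul_left Nat.card_pos hp.one_lt
  haveI : (charKer θ).Normal := charKer_normal hθc
  obtain ⟨a', ha'⟩ : ∃ a', (charKer θ).index = p ^ a' :=
    (IsPGroup.iff_card.1 ((hP.to_subgroup M).to_quotient (charKer θ))).imp fun _ h =>
      (Subgroup.index_eq_card _).trans h
  set J : Subgroup M := ⨅ η ∈ conjSet θ, charKer η with hJ
  have hker : J.map M.subtype ≤ charKer (χ : P → ℂ) := by
    rintro _ ⟨g, hg, rfl⟩
    rw [mem_charKer_iff (isCharacter_coe χ)]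
    have hg' : ∀ x : P, conjFun M x θ g = conjFun M x θ 1 := fun x => by
      simp only [hJ, SetLike.mem_coe, Subgroup.mem_iInf] at hg
      exact map_eq_map_one_of_mem_charKer (hg _ (Finset.mem_image.2 ⟨x, Finset.mem_univ x, rfl⟩))
    show (χ : P → ℂ) ((g : M) : P) = (χ : P → ℂ) ((1 : M) : P)
    rw [hχM, hχM]
    simp only [hg']
  have hadvd : p ^ a ∣ p * J.index := by
    rw [← ha, ← hidx, mul_comm]
    have h2 := Subgroup.index_dvd_of_le hker
    rw [Subgroup.index_map_subtype] at h2
    exact h2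
  have hr1 : r ≤ 1 := by
    have h3 := hpr.trans (hfib0.trans hSp)
    by_contra hlt
    have h4 := Nat.pow_le_pow_right hp.pos (show 2 ≤ r by omega)
    nlinarith [hp.two_le]
  obtain ⟨p', rfl⟩ : ∃ p', p = p' + 1 := ⟨p - 1, by have := hp.pos; omega⟩
  obtain ⟨g, rfl⟩ : ∃ g, f' = g + 1 := ⟨f' - 1, by omega⟩
  have hp2 := hp.two_le
  simp only [Nat.add_sub_cancel] at *
  interval_cases r
  · -- the field does not grow
    rw [pow_zero, mul_one] at hr
    have hb := ih _ hMcard M rfl (hP.to_subgroup M) θ' (g + 1) a' t hf' ha' hr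
    simp only [Nat.add_sub_cancel] at hb
    have hJidx : J.index ≤ (p' + 1) ^ ((p' + 1) * a') := by
      rw [hJ]
      calc (⨅ η ∈ conjSet θ, charKer η).index ≤ ∏ η ∈ conjSet θ, (charKer η).index := by
            exact index_biInf_le _ _
        _ = ∏ _η ∈ conjSet θ, (p' + 1) ^ a' := Finset.prod_congr rfl fun η hη => by
            obtain ⟨x, -, rfl⟩ := Finset.mem_image.1 hη
            rw [index_charKer_conjFun, ha']
        _ ≤ _ := by
            rw [Finset.prod_const, ← pow_mul, mul_comm]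
            exact Nat.pow_le_pow_right hp.pos (Nat.mul_le_mul_right _ hSp)
    have hle : (p' + 1) ^ a ≤ (p' + 1) ^ ((p' + 1) * a' + 1) := by
      refine (Nat.le_of_dvd (Nat.mul_pos hp.pos (Nat.pos_of_ne_zero Subgroup.index_ne_zero_of_finite))
        hadvd).trans ?_
      rw [pow_succ, mul_comm]
      exact Nat.mul_le_mul_right _ hJidx
    have ha2 : a ≤ (p' + 1) * a' + 1 := (Nat.pow_le_pow_iff_right hp.one_lt).1 hle
    rw [hff]
    have h5 := Nat.mul_le_mul_left p' ha2
    have h6 := Nat.mul_le_mul_left (p' + 1) hb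
    have h7 : (p' + 1) * (g + 1) - 1 = (p' + 1) * g + p' := by
      rw [mul_add, mul_one]; omega
    rw [h7]
    linarith
  · -- the field grows by `p`
    have hb := ih _ hMcard M rfl (hP.to_subgroup M) θ' (g + 1) a' (t + 1) hf' ha'
      (by rw [hr, pow_succ]; ring)
    simp only [Nat.add_sub_cancel] at hb
    rw [pow_one] at hpr
    have hsurj : (fib ρ₀).image act = conjSet θ := by
      refine Finset.eq_of_subset_of_card_le (fun η hη => ?_) ?_
      · obtain ⟨τ, hτ, rfl⟩ := Finset.mem_image.1 hη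
        exact hact_mem τ hτ
      · rw [Finset.card_image_of_injective _ hact_inj]
        exact hSp.trans hpr
    have hkerEq : ∀ η ∈ conjSet θ, charKer η = charKer θ := by
      intro η hη
      rw [← hsurj] at hη
      obtain ⟨τ, -, rfl⟩ := Finset.mem_image.1 hη
      obtain ⟨σ, hσ⟩ := exists_extend hθchar τ
      have hσact : ∀ m, act τ m = σ (θ m) := fun m =>
        (hσ ⟨θ m, IntermediateField.subset_adjoin ℚ _ ⟨m, rfl⟩⟩).symm
      ext m
      simp only [mem_charKer, hσact, σ.injective.eq_iff]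
    have hJeq : charKer θ ≤ J := by
      rw [hJ]
      exact le_iInf₂ fun η hη => (hkerEq η hη).ge
    have ha2 : a ≤ a' + 1 := by
      refine (Nat.pow_dvd_pow_iff_le_right hp.one_lt).1 (hadvd.trans ?_)
      rw [pow_succ', ← ha']
      exact Nat.mul_dvd_mul_left _ (Subgroup.index_dvd_of_le hJeq)
    rw [hff]
    have h5 := Nat.mul_le_mul_left p' ha2
    have h7 : (p' + 1) * (g + 1) - 1 = (p' + 1) * g + p' := by
      rw [mul_add, mul_one]; omega
    rw [h7]
    have hp1 : 1 ≤ p' := by omega
    have h8 : t + 1 + 1 ≤ (t + 1) * (p' + 1) := by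
      rw [mul_add, mul_one]
      have : 1 ≤ (t + 1) * p' := Nat.one_le_iff_ne_zero.2 (Nat.mul_ne_zero (by omega) (by omega))
      omega
    have h9 := Nat.mul_le_mul_right (g + 1) (Nat.mul_le_mul_left p' h8)
    have h10 : 0 ≤ p' * g := Nat.zero_le _
    linarith

end CfsgLib.PGroupFieldBound
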